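import Mathlib

set_option autoImplicit false

namespace Cfsg.Agent.Lib.Helper90.GJ

variable {F : Type*} [Field F]

/-- [Q1] -/
theorem q1 [Fintype F] (hF : Odd (Fintype.card F)) (c d : F) (hc : c ≠ 0) :
    ∃ α β : F, α ^ 2 - c * β ^ 2 = d := by
  have h1 : (Polynomial.X ^ 2 - Polynomial.C d : Polynomial F).degree = 2 :=
    Polynomial.degree_X_pow_sub_C (by norm_num) d
  have h2 : (Polynomial.C (-c) * Polynomial.X ^ 2 : Polynomial F).degree = 2 :=
    Polynomial.degree_C_mul_X_pow 2 (neg_ne_zero.2 hc)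
  obtain ⟨a, b, hab⟩ := FiniteField.exists_root_sum_quadratic h1 h2 (Nat.odd_iff.1 hF)
  refine ⟨a, b, ?_⟩
  simp only [Polynomial.eval_sub, Polynomial.eval_pow, Polynomial.eval_X, Polynomial.eval_C,
    Polynomial.eval_mul] at hab
  linear_combination hab

end Cfsg.Agent.Lib.Helper90.GJ
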