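import Mathlib

set_option autoImplicit false

namespace Cfsg.Agent.Lib.Helper90.GJ

variable {F : Type*} [Field F]

theorem q2_aux (p : Matrix (Fin 2) (Fin 2) F) (hp : ∀ c : F, p ≠ c • 1) (htp : p.trace = 0) :
    ∃ A : Matrix (Fin 2) (Fin 2) F, A.det ≠ 0 ∧ p * A = A * !![0, -p.det; 1, 0] := by
  rw [Matrix.trace_fin_two] at htp
  have hd : p 1 1 = - p 0 0 := by linear_combination htp
  have key : ∀ x y : F, p * !![x, p 0 0 * x + p 0 1 * y; y, p 1 0 * x + p 1 1 * y] =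
      !![x, p 0 0 * x + p 0 1 * y; y, p 1 0 * x + p 1 1 * y] * !![0, -p.det; 1, 0] := by
    intro x y
    rw [Matrix.det_fin_two]
    ext i j
    fin_cases i <;> fin_cases j <;>
      simp [Matrix.mul_apply, Fin.sum_univ_two, hd] <;> ring
  by_cases hc : p 1 0 = 0
  · by_cases hb : p 0 1 = 0
    · refine ⟨_, ?_, key 1 1⟩
      rw [Matrix.det_fin_two_of, hc, hb, hd]
      intro h
      have h0 : p 0 0 + p 0 0 = 0 := by linear_combination -h
      apply hp (p 0 0)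
      ext i j
      fin_cases i <;> fin_cases j <;> simp [hb, hc, hd]
      linear_combination -h0
    · refine ⟨_, ?_, key 0 1⟩
      rw [Matrix.det_fin_two_of]
      intro h
      apply hb
      linear_combination -h
  · refine ⟨_, ?_, key 1 0⟩
    rw [Matrix.det_fin_two_of]
    intro h
    apply hc
    linear_combination h

/-- [Q2] -/
theorem q2 (p r : Matrix (Fin 2) (Fin 2) F) (hp : ∀ c : F, p ≠ c • 1) (hr : ∀ c : F, r ≠ c • 1)
    (htp : p.trace = 0) (htr : r.trace = 0) (hd : p.det = r.det) :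
    ∃ u : Matrix (Fin 2) (Fin 2) F, u.det ≠ 0 ∧ r * u = u * p := by
  obtain ⟨A, hA, hpA⟩ := q2_aux p hp htp
  obtain ⟨B, hB, hrB⟩ := q2_aux r hr htr
  rw [← hd] at hrB
  have hAu : IsUnit A.det := isUnit_iff_ne_zero.2 hA
  refine ⟨B * A⁻¹, ?_, ?_⟩
  · rw [Matrix.det_mul, Matrix.det_nonsing_inv]
    exact mul_ne_zero hB (by simpa using hA)
  · have h1 : !![0, -p.det; 1, 0] * A⁻¹ = A⁻¹ * p := by
      have h2 : A⁻¹ * (p * A) * A⁻¹ = A⁻¹ * (A * !![0, -p.det; 1, 0]) * A⁻¹ := by rw [hpA]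
      rw [← Matrix.mul_assoc, Matrix.mul_assoc (A⁻¹ * p), Matrix.mul_nonsing_inv A hAu, Matrix.mul_one,
        ← Matrix.mul_assoc A⁻¹ A, Matrix.nonsing_inv_mul A hAu, Matrix.one_mul] at h2
      exact h2.symm
    rw [← Matrix.mul_assoc, hrB, Matrix.mul_assoc, h1, Matrix.mul_assoc]

end Cfsg.Agent.Lib.Helper90.GJ
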