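import Mathlib

set_option autoImplicit false

namespace Cfsg.Agent.Lib.Helper90.GJ

variable {F : Type*} [Field F]

/-- [Q3] -/
theorem q3 (p : Matrix (Fin 2) (Fin 2) F) (c : F) (h : p * p = c • 1) (hp : ∀ c : F, p ≠ c • 1) :
    p.trace = 0 ∧ p.det = -c := by
  have h00 := congrFun (congrFun h 0) 0
  have h01 := congrFun (congrFun h 0) 1
  have h10 := congrFun (congrFun h 1) 0
  have h11 := congrFun (congrFun h 1) 1
  simp only [Matrix.mul_apply, Fin.sum_univ_two, Matrix.smul_apply, Matrix.one_apply_eq, smul_eq_mul,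
    mul_one] at h00 h11
  simp only [Matrix.mul_apply, Fin.sum_univ_two, Matrix.smul_apply, smul_eq_mul, ne_eq, zero_ne_one,
    one_ne_zero, not_false_eq_true, Matrix.one_apply_ne, mul_zero] at h01 h10
  have ht : p.trace = 0 := by
    rw [Matrix.trace_fin_two]
    by_contra hne
    have hb : p 0 1 = 0 := by
      have : p 0 1 * (p 0 0 + p 1 1) = 0 := by linear_combination h01
      exact (mul_eq_zero.1 this).resolve_right hne
    have hc' : p 1 0 = 0 := by
      have : p 1 0 * (p 0 0 + p 1 1) = 0 := by linear_combination h10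
      exact (mul_eq_zero.1 this).resolve_right hne
    have had : p 0 0 = p 1 1 := by
      have : (p 0 0 - p 1 1) * (p 0 0 + p 1 1) = 0 := by linear_combination h00 - h11
      exact sub_eq_zero.1 ((mul_eq_zero.1 this).resolve_right hne)
    apply hp (p 0 0)
    ext i j
    fin_cases i <;> fin_cases j <;> simp [hb, hc', ← had]
  refine ⟨ht, ?_⟩
  rw [Matrix.trace_fin_two] at ht
  rw [Matrix.det_fin_two]
  have hd : p 1 1 = - p 0 0 := by linear_combination ht
  rw [hd]
  linear_combination -h00

end Cfsg.Agent.Lib.Helper90.GJ
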