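import Cfsg.Agent.Lib.Helper90.G2S.Asm
import Cfsg.Agent.Lib.Helper90.GJ.Q1
import Cfsg.Agent.Lib.Helper90.GJ.Q2
import Cfsg.Agent.Lib.Helper90.GJ.Q3

set_option autoImplicit false

namespace Cfsg.Agent.Lib.Helper90.GJ

open Cfsg.Lie Matrix Cfsg.Agent.Lib.Helper90.G2S
open scoped MatrixGroups

variable {F : Type*} [Field F]

theorem ic_two_ne_zero [Fintype F] (hF : Odd (Fintype.card F)) : (2 : F) ≠ 0 := by
  intro h
  haveI : CharP F 2 := CharTwo.of_one_ne_zero_of_two_eq_zero one_ne_zero h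
  have h1 : ringChar F = 2 := ringChar.eq F 2
  have h2 := FiniteField.even_card_of_char_two h1
  rw [Nat.odd_iff] at hF
  omega

theorem ic_core [Fintype F] (hF : Odd (Fintype.card F)) (p r p' : Matrix (Fin 2) (Fin 2) F)
    (hpp' : p * p' = 1) (hdet : p.det = r.det) (c : F) (hc : c ≠ 0)
    (hp2 : p * p = c • 1) (hr2 : r * r = c • 1) :
    ∃ x y : Matrix (Fin 2) (Fin 2) F, x.trace = 1 ∧ x.det = y.det ∧ p * x * p' = x ∧ r * y * p' = y := by
  classical
  have h2 : (2 : F) ≠ 0 := ic_two_ne_zero hF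
  by_cases hsc : ∃ μ : F, p = μ • 1
  · obtain ⟨μ, rfl⟩ := hsc
    refine ⟨!![1, 0; 0, 0], 0, by simp [Matrix.trace_fin_two], by simp [Matrix.det_fin_two], ?_, by simp⟩
    have : (μ • (1 : Matrix (Fin 2) (Fin 2) F)) * !![1, 0; 0, 0] = !![1, 0; 0, 0] * (μ • 1) := by simp
    rw [this, mul_assoc, hpp', mul_one]
  · push Not at hsc
    obtain ⟨htp, hdp⟩ := q3 p c hp2 hsc
    have hr : ∀ μ : F, r ≠ μ • 1 := by
      rintro μ rfl
      have h00 := congrFun (congrFun hr2 0) 0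
      simp at h00
      have hd : (μ • (1 : Matrix (Fin 2) (Fin 2) F)).det = μ * μ := by
        simp; ring
      rw [hd, hdp, h00] at hdet
      have : (2 : F) * c = 0 := by linear_combination -hdet
      rcases mul_eq_zero.1 this with h | h
      · exact h2 h
      · exact hc h
    obtain ⟨htr, hdr⟩ := q3 r c hr2 hr
    obtain ⟨u, hu, hru⟩ := q2 p r hsc hr htp htr hdet
    obtain ⟨α, β, hαβ⟩ := q1 hF c (1 / (4 * u.det)) hc
    have h4 : (4 : F) ≠ 0 := by
      have : (4 : F) = 2 * 2 := by norm_num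
      rw [this]; exact mul_ne_zero h2 h2
    refine ⟨(1 / 2 : F) • 1, u * (α • 1 + β • p), ?_, ?_, ?_, ?_⟩
    · simp
      field_simp
    · rw [Matrix.det_mul]
      have hd1 : (α • (1 : Matrix (Fin 2) (Fin 2) F) + β • p).det = α ^ 2 - c * β ^ 2 := by
        rw [Matrix.trace_fin_two] at htp
        rw [Matrix.det_fin_two] at hdp
        simp [Matrix.det_fin_two]
        linear_combination (α * β) * htp + β ^ 2 * hdp
      rw [hd1, hαβ]
      have hx : ((1 / 2 : F) • (1 : Matrix (Fin 2) (Fin 2) F)).det = 1 / 4 := by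
        simp [Matrix.det_fin_two]
        field_simp
        norm_num
      rw [hx]
      field_simp
    · rw [mul_smul_comm, mul_one, smul_mul_assoc, hpp']
    · have e : r * (u * (α • 1 + β • p)) = u * (α • 1 + β • p) * p := by
        rw [← mul_assoc, hru, mul_assoc, mul_assoc]
        congr 1
        simp [mul_add, add_mul]
      rw [e, mul_assoc, hpp', mul_one]

/-- [IC] -/
theorem invol_fix [Fintype F] (hF : Odd (Fintype.card F)) {Φ : MM F →* G2 F} (hΦ : IsPhi Φ)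
    (m : MM F) (h2 : Φ m * Φ m = 1) : ∃ f ∈ Idem F, act (Φ m) f = f := by
  classical
  have hmm : Φ (m * m) = 1 := by rw [map_mul, h2]
  obtain ⟨c, hc1, hc2⟩ := ker_Phi hΦ (m * m) hmm
  have hp2 : (m.1.1 : Matrix (Fin 2) (Fin 2) F) * (m.1.1 : Matrix (Fin 2) (Fin 2) F) = c • 1 := hc1
  have hr2 : (m.1.2 : Matrix (Fin 2) (Fin 2) F) * (m.1.2 : Matrix (Fin 2) (Fin 2) F) = c • 1 := hc2
  have hpp' : (m.1.1 : Matrix (Fin 2) (Fin 2) F) *
      ((m.1.1⁻¹ : GL (Fin 2) F) : Matrix (Fin 2) (Fin 2) F) = 1 := by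
    rw [← Units.val_mul, mul_inv_cancel, Units.val_one]
  have hc : c ≠ 0 := by
    intro h0
    rw [h0, zero_smul] at hp2
    have h1 : (m.1.1 : Matrix (Fin 2) (Fin 2) F) * (m.1.1 : Matrix (Fin 2) (Fin 2) F) *
        ((m.1.1⁻¹ : GL (Fin 2) F) : Matrix (Fin 2) (Fin 2) F) *
        ((m.1.1⁻¹ : GL (Fin 2) F) : Matrix (Fin 2) (Fin 2) F) = 1 := by
      rw [mul_assoc (m.1.1 : Matrix (Fin 2) (Fin 2) F), hpp', mul_one, hpp']
    rw [hp2, zero_mul, zero_mul] at h1
    exact zero_ne_one h1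
  have hdet : (m.1.1 : Matrix (Fin 2) (Fin 2) F).det = (m.1.2 : Matrix (Fin 2) (Fin 2) F).det := by
    have := congrArg Units.val m.2
    simpa using this
  obtain ⟨x, y, hx1, hxy, hpx, hry⟩ := ic_core hF _ _ _ hpp' hdet c hc hp2 hr2
  refine ⟨psi x y, ?_, ?_⟩
  · rw [Matrix.trace_fin_two] at hx1
    rw [Matrix.det_fin_two, Matrix.det_fin_two] at hxy
    refine ⟨?_, ?_⟩
    · simpa [psi] using hx1
    · simp [psi]
      linear_combination hxy
  · rw [hΦ m x y, hpx, hry]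

end Cfsg.Agent.Lib.Helper90.GJ
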