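import Cfsg.Agent.Lib.Helper90.G2S.Asm
import Cfsg.Prelude.Def_LieChev

set_option autoImplicit false

namespace Cfsg.Agent.Lib.Helper90.GJ

open Cfsg.Lie Matrix Cfsg.Agent.Lib.Helper90.G2S
open scoped MatrixGroups

variable {F : Type*} [Field F]

theorem conj_iota (ι : SpecialLinearGroup (Fin 3) F →* G2 F) (hι : ∀ s, ActsAs (ι s) s)
    (t : G2 F) (f : Fin 8 → F) (hf : f ∈ Idem F) (ht : act t f = f) :
    ∃ (g : G2 F) (s : SpecialLinearGroup (Fin 3) F), g * t * g⁻¹ = ι s := by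
  obtain ⟨g, hg⟩ := trans_Idem f hf
  have h1 : act (g * t * g⁻¹) e1 = e1 := by
    rw [act_mul, act_mul, ← hg, o6_inv_act, ht]
  obtain ⟨s, hs⟩ := stab_e1 _ h1
  exact ⟨g, s, o8_actsAs_unique hs (hι s)⟩

end Cfsg.Agent.Lib.Helper90.GJ
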