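import Cfsg.Agent.Lib.Helper90.G2S.T2

set_option autoImplicit false

namespace Cfsg.Agent.Lib.Helper90.GJ

open Matrix Cfsg.Agent.Lib.Helper90.G2S
open scoped MatrixGroups

variable {F : Type*} [Field F]

theorem s3_block (h2 : (2 : F) ≠ 0) (s : SpecialLinearGroup (Fin 3) F) (hs : s * s = 1) (hs1 : s ≠ 1)
    (hcol : (s : Matrix (Fin 3) (Fin 3) F) *ᵥ ![1, 0, 0] = ![1, 0, 0]) :
    ∃ T : SpecialLinearGroup (Fin 3) F, (T : Matrix (Fin 3) (Fin 3) F) * (s : Matrix (Fin 3) (Fin 3) F)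
      = Matrix.diagonal ![1, -1, -1] * (T : Matrix (Fin 3) (Fin 3) F) := by
  classical
  have hsm : (s : Matrix (Fin 3) (Fin 3) F) * (s : Matrix (Fin 3) (Fin 3) F) = 1 := by
    have := congrArg (fun x : SpecialLinearGroup (Fin 3) F => (x : Matrix (Fin 3) (Fin 3) F)) hs
    simpa using this
  have hdet : (s : Matrix (Fin 3) (Fin 3) F).det = 1 := s.2
  have hne : (s : Matrix (Fin 3) (Fin 3) F) ≠ 1 := by
    intro h
    apply hs1
    apply Subtype.ext
    simpa using h
  generalize (s : Matrix (Fin 3) (Fin 3) F) = A at hsm hdet hne hcol ⊢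
  have e00 : A 0 0 = 1 := by
    have := congrFun hcol 0
    simpa [Matrix.mulVec, dotProduct, Fin.sum_univ_three] using this
  have e10 : A 1 0 = 0 := by
    have := congrFun hcol 1
    simpa [Matrix.mulVec, dotProduct, Fin.sum_univ_three] using this
  have e20 : A 2 0 = 0 := by
    have := congrFun hcol 2
    simpa [Matrix.mulVec, dotProduct, Fin.sum_univ_three] using this
  rw [Matrix.det_fin_three, e00, e10, e20] at hdet
  have q : ∀ i j, A i 0 * A 0 j + A i 1 * A 1 j + A i 2 * A 2 j = (1 : Matrix (Fin 3) (Fin 3) F) i j := by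
    intro i j
    rw [← hsm, Matrix.mul_apply, Fin.sum_univ_three]
  have q11 := q 1 1
  have q12 := q 1 2
  have q21 := q 2 1
  have q22 := q 2 2
  have q01 := q 0 1
  have q02 := q 0 2
  simp only [e00, e10, e20, Matrix.one_apply_eq] at q11 q12 q21 q22 q01 q02
  rw [Matrix.one_apply_ne (by decide)] at q12 q21 q01 q02
  have hτ : A 1 1 + A 2 2 ≠ 0 := by
    intro h
    apply h2
    have h22 : A 2 2 = - A 1 1 := eq_neg_of_add_eq_zero_right h
    rw [h22] at hdet
    linear_combination -q11 - hdet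
  have m12 : A 1 2 = 0 := by
    have : A 1 2 * (A 1 1 + A 2 2) = 0 := by linear_combination q12
    exact (mul_eq_zero.1 this).resolve_right hτ
  have m21 : A 2 1 = 0 := by
    have : A 2 1 * (A 1 1 + A 2 2) = 0 := by linear_combination q21
    exact (mul_eq_zero.1 this).resolve_right hτ
  simp only [m12, m21] at hdet q11 q22 q01 q02
  have heq : A 1 1 = A 2 2 := by
    have : (A 1 1 - A 2 2) * (A 1 1 - A 2 2) = 0 := by linear_combination q11 + q22 - 2 * hdet
    have := mul_self_eq_zero.1 this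
    exact sub_eq_zero.1 this
  have hpm : A 1 1 = 1 ∨ A 1 1 = -1 := by
    have : (A 1 1 - 1) * (A 1 1 + 1) = 0 := by linear_combination q11
    rcases mul_eq_zero.1 this with h | h
    · left; exact sub_eq_zero.1 h
    · right; exact eq_neg_of_add_eq_zero_left h
  rcases hpm with h11 | h11
  · exfalso
    apply hne
    have h22 : A 2 2 = 1 := by rw [← heq, h11]
    have a01 : A 0 1 = 0 := by
      rw [h11] at q01
      have : (2 : F) * A 0 1 = 0 := by linear_combination q01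
      exact (mul_eq_zero.1 this).resolve_left h2
    have a02 : A 0 2 = 0 := by
      rw [h22] at q02
      have : (2 : F) * A 0 2 = 0 := by linear_combination q02
      exact (mul_eq_zero.1 this).resolve_left h2
    ext i j
    fin_cases i <;> fin_cases j <;> simp [e00, e10, e20, m12, m21, h11, h22, a01, a02]
  · have h22 : A 2 2 = -1 := by rw [← heq, h11]
    refine ⟨⟨!![1, A 0 1 / 2, A 0 2 / 2; 0, 1, 0; 0, 0, 1], by simp [Matrix.det_fin_three]⟩, ?_⟩
    ext i j
    fin_cases i <;> fin_cases j <;>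
      simp [Matrix.mul_apply, Fin.sum_univ_three, e00, e10, e20, m12, m21, h11, h22,
        Matrix.diagonal_apply] <;> field_simp <;> ring

theorem s3_core (h2 : (2 : F) ≠ 0)
    (hmove : ∀ a : Fin 3 → F, a ≠ 0 → ∃ u : SpecialLinearGroup (Fin 3) F,
      (u : Matrix (Fin 3) (Fin 3) F) *ᵥ a = ![1, 0, 0])
    (s : SpecialLinearGroup (Fin 3) F) (hs : s * s = 1) (hs1 : s ≠ 1) :
    ∃ u : SpecialLinearGroup (Fin 3) F,
      ((u * s * u⁻¹ : SpecialLinearGroup (Fin 3) F) : Matrix (Fin 3) (Fin 3) F) =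
        Matrix.diagonal ![1, -1, -1] := by
  classical
  have hsm : (s : Matrix (Fin 3) (Fin 3) F) * (s : Matrix (Fin 3) (Fin 3) F) = 1 := by
    have := congrArg (fun x : SpecialLinearGroup (Fin 3) F => (x : Matrix (Fin 3) (Fin 3) F)) hs
    simpa using this
  have hne : (s : Matrix (Fin 3) (Fin 3) F) + 1 ≠ 0 := by
    intro h
    have hs' : (s : Matrix (Fin 3) (Fin 3) F) = -1 := eq_neg_of_add_eq_zero_left h
    have hdet : (s : Matrix (Fin 3) (Fin 3) F).det = 1 := s.2
    rw [hs', Matrix.det_neg, Matrix.det_one, Fintype.card_fin] at hdet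
    apply h2
    linear_combination -hdet
  obtain ⟨w, hw⟩ : ∃ w : Fin 3 → F, ((s : Matrix (Fin 3) (Fin 3) F) + 1) *ᵥ w ≠ 0 := by
    by_contra hcon
    push Not at hcon
    apply hne
    ext i j
    have := congrFun (hcon (Pi.single j 1)) i
    simpa using this
  have hsv : (s : Matrix (Fin 3) (Fin 3) F) *ᵥ (((s : Matrix (Fin 3) (Fin 3) F) + 1) *ᵥ w)
      = ((s : Matrix (Fin 3) (Fin 3) F) + 1) *ᵥ w := by
    rw [Matrix.mulVec_mulVec, mul_add, hsm, mul_one, add_comm]
  obtain ⟨u, hu⟩ := hmove _ hw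
  have hs's' : (u * s * u⁻¹) * (u * s * u⁻¹) = 1 := by
    have : (u * s * u⁻¹) * (u * s * u⁻¹) = u * (s * s) * u⁻¹ := by group
    rw [this, hs]; group
  have hs'1 : u * s * u⁻¹ ≠ 1 := by
    intro h
    apply hs1
    have : s = u⁻¹ * (u * s * u⁻¹) * u := by group
    rw [this, h]; group
  have hcol : ((u * s * u⁻¹ : SpecialLinearGroup (Fin 3) F) : Matrix (Fin 3) (Fin 3) F) *ᵥ ![1, 0, 0]
      = ![1, 0, 0] := by
    have hinv : ((u⁻¹ : SpecialLinearGroup (Fin 3) F) : Matrix (Fin 3) (Fin 3) F) *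
        (u : Matrix (Fin 3) (Fin 3) F) = 1 := by
      have hi : ((u⁻¹ : SpecialLinearGroup (Fin 3) F) : Matrix (Fin 3) (Fin 3) F)
        = adjugate u.1 := Matrix.SpecialLinearGroup.coe_inv u
      rw [hi, Matrix.adjugate_mul, u.2, one_smul]
    have e1 : ((u * s * u⁻¹ : SpecialLinearGroup (Fin 3) F) : Matrix (Fin 3) (Fin 3) F)
        = (u : Matrix (Fin 3) (Fin 3) F) * (s : Matrix (Fin 3) (Fin 3) F) *
          ((u⁻¹ : SpecialLinearGroup (Fin 3) F) : Matrix (Fin 3) (Fin 3) F) := rfl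
    rw [e1]
    conv_lhs => rw [← hu]
    rw [Matrix.mulVec_mulVec, mul_assoc, hinv, mul_one, ← Matrix.mulVec_mulVec, hsv, hu]
  obtain ⟨T, hT⟩ := s3_block h2 _ hs's' hs'1 hcol
  refine ⟨T * u, ?_⟩
  have e : T * u * s * (T * u)⁻¹ = T * (u * s * u⁻¹) * T⁻¹ := by group
  have hTinv : (T : Matrix (Fin 3) (Fin 3) F) *
      ((T⁻¹ : SpecialLinearGroup (Fin 3) F) : Matrix (Fin 3) (Fin 3) F) = 1 := by
    have hi : ((T⁻¹ : SpecialLinearGroup (Fin 3) F) : Matrix (Fin 3) (Fin 3) F)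
      = adjugate T.1 := Matrix.SpecialLinearGroup.coe_inv T
    rw [hi, Matrix.mul_adjugate, T.2, one_smul]
  have e2 : ((T * (u * s * u⁻¹) * T⁻¹ : SpecialLinearGroup (Fin 3) F) : Matrix (Fin 3) (Fin 3) F)
      = (T : Matrix (Fin 3) (Fin 3) F) *
        ((u * s * u⁻¹ : SpecialLinearGroup (Fin 3) F) : Matrix (Fin 3) (Fin 3) F) *
        ((T⁻¹ : SpecialLinearGroup (Fin 3) F) : Matrix (Fin 3) (Fin 3) F) := rfl
  rw [e, e2, hT, mul_assoc, hTinv, mul_one]

/-- [S3] -/
theorem sl3_invol (h2 : (2 : F) ≠ 0) (s : SpecialLinearGroup (Fin 3) F) (hs : s * s = 1) (hs1 : s ≠ 1) :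
    ∃ u : SpecialLinearGroup (Fin 3) F,
      ((u * s * u⁻¹ : SpecialLinearGroup (Fin 3) F) : Matrix (Fin 3) (Fin 3) F) =
        Matrix.diagonal ![1, -1, -1] :=
  s3_core h2 (fun a ha => exists_sl_a a ha) s hs hs1

end Cfsg.Agent.Lib.Helper90.GJ
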