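import Mathlib

set_option autoImplicit false

namespace Cfsg.Agent.Lib.Helper90.GJ

variable {F : Type*} [Field F]

/-- [TR78] -/
theorem transport_conj {G G' : Type*} [Group G] [Group G'] (e : G ≃* G')
    (h : ∀ s t : G, orderOf s = 2 → orderOf t = 2 → IsConj s t) (s t : G')
    (hs : orderOf s = 2) (ht : orderOf t = 2) : IsConj s t := by
  have h1 := h (e.symm s) (e.symm t) (by rw [MulEquiv.orderOf_eq, hs]) (by rw [MulEquiv.orderOf_eq, ht])
  rw [isConj_iff] at h1 ⊢
  obtain ⟨c, hc⟩ := h1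
  refine ⟨e c, ?_⟩
  have h2 := congrArg e hc
  simpa using h2

end Cfsg.Agent.Lib.Helper90.GJ
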