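import Cfsg.Agent.Lib.Helper90.GJ.IR
import Cfsg.Agent.Lib.Helper90.GJ.Q1
import Cfsg.Agent.Lib.Helper90.GJ.Q2
import Cfsg.Agent.Lib.Helper90.GJ.Q3
import Cfsg.Agent.Lib.Helper90.GJ.IC
import Cfsg.Agent.Lib.Helper90.GJ.IS
import Cfsg.Agent.Lib.Helper90.GJ.S3
import Cfsg.Agent.Lib.Helper90.GJ.TR78
import Cfsg.Agent.Lib.Helper90.G2S.Asm

set_option autoImplicit false

namespace Cfsg.Agent.Lib.Helper90.GJ

open Cfsg.Lie Matrix Cfsg.Agent.Lib.Helper90.G2S
open scoped MatrixGroups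

variable {F : Type*} [Field F]

theorem two_ne_zero_of_odd [Fintype F] (hF : Odd (Fintype.card F)) : (2 : F) ≠ 0 := by
  intro h
  have h2 : ringChar F = 2 := by
    have : ringChar F ∣ 2 := by
      apply ringChar.dvd
      exact_mod_cast h
    rcases (Nat.dvd_prime Nat.prime_two).1 this with h1 | h1
    · exact absurd h1 (CharP.ringChar_ne_one)
    · exact h1
  have := FiniteField.even_card_of_char_two h2
  have h3 := Nat.odd_iff.1 hF
  omega

/-- every involution is conjugate to `ι s` with `s = diag(1,-1,-1)`. -/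
theorem invol_std [Fintype F] (hF : Odd (Fintype.card F))
    (ι : SpecialLinearGroup (Fin 3) F →* G2 F) (hι : ∀ s, ActsAs (ι s) s)
    (t : G2 F) (ht : orderOf t = 2) :
    ∃ (g : G2 F) (s : SpecialLinearGroup (Fin 3) F), g * t * g⁻¹ = ι s ∧
      (s : Matrix (Fin 3) (Fin 3) F) = Matrix.diagonal ![1, -1, -1] := by
  obtain ⟨Φ, hΦ⟩ := exists_Phi (F := F)
  obtain ⟨g1, m, h1⟩ := invol_conj_range hF hΦ t ht
  have htt : t * t = 1 := by
    have := pow_orderOf_eq_one t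
    rwa [ht, pow_two] at this
  have ht1 : t ≠ 1 := by
    intro h
    rw [h, orderOf_one] at ht
    norm_num at ht
  have h2 : Φ m * Φ m = 1 := by
    rw [← h1]
    calc g1 * t * g1⁻¹ * (g1 * t * g1⁻¹) = g1 * (t * t) * g1⁻¹ := by group
      _ = 1 := by rw [htt]; group
  obtain ⟨f, hf, hfix⟩ := invol_fix hF hΦ m h2
  obtain ⟨g2, s, h3⟩ := conj_iota ι hι (Φ m) f hf hfix
  have hinj : Function.Injective ι := fun s s' h => o8_actsAs_inj (hι s) (h ▸ hι s')
  have hss : s * s = 1 := by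
    apply hinj
    rw [map_mul, map_one, ← h3]
    calc g2 * Φ m * g2⁻¹ * (g2 * Φ m * g2⁻¹) = g2 * (Φ m * Φ m) * g2⁻¹ := by group
      _ = 1 := by rw [h2]; group
  have hs1 : s ≠ 1 := by
    intro h
    rw [h, map_one, ← h1] at h3
    apply ht1
    have : g2 * g1 * t * (g2 * g1)⁻¹ = 1 := by rw [← h3]; group
    have h4 : t = (g2 * g1)⁻¹ * (g2 * g1 * t * (g2 * g1)⁻¹) * (g2 * g1) := by group
    rw [h4, this]; group
  obtain ⟨u, hu⟩ := sl3_invol (two_ne_zero_of_odd hF) s hss hs1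
  refine ⟨ι u * g2 * g1, u * s * u⁻¹, ?_, hu⟩
  rw [map_mul, map_mul, map_inv, ← h3, ← h1]
  group

theorem oct_conj [Fintype F] (hF : Odd (Fintype.card F)) (s t : G2 F)
    (hs : orderOf s = 2) (ht : orderOf t = 2) : IsConj s t := by
  obtain ⟨ι, hι⟩ := exists_iota (F := F)
  obtain ⟨g, a, h1, h2⟩ := invol_std hF ι hι s hs
  obtain ⟨g', a', h1', h2'⟩ := invol_std hF ι hι t ht
  have : a = a' := Subtype.ext (h2.trans h2'.symm)
  rw [isConj_iff]
  refine ⟨g'⁻¹ * g, ?_⟩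
  have h3 : g * s * g⁻¹ = g' * t * g'⁻¹ := by rw [h1, h1', this]
  calc g'⁻¹ * g * s * (g'⁻¹ * g)⁻¹ = g'⁻¹ * (g * s * g⁻¹) * g' := by group
    _ = t := by rw [h3]; group

end Cfsg.Agent.Lib.Helper90.GJ
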