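import Cfsg.Agent.Lib.Helper90.GJ.Asm
import Cfsg.Agent.Lib.Helper90.GI.Asm

set_option autoImplicit false

namespace Cfsg.Agent.Lib.Helper90.GJ

open Cfsg.Lie Matrix Cfsg.Agent.Lib.Helper90.G2S

variable {F : Type*} [Field F]

theorem final78 [Fintype F] (hF : Odd (Fintype.card F)) (s t : chevG2.group F)
    (hs : orderOf s = 2) (ht : orderOf t = 2) : IsConj s t := by
  obtain ⟨e⟩ := GI.exists_iso (F := F)
  exact transport_conj e (oct_conj hF) s t hs ht

end Cfsg.Agent.Lib.Helper90.GJ
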