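import Cfsg.Agent.Lib.Helper90.G2S.Asm
import Cfsg.Prelude.Def_LieChev

set_option autoImplicit false

namespace Cfsg.Agent.Lib.Helper90.GJ

open Cfsg.Lie Matrix Cfsg.Agent.Lib.Helper90.G2S
open scoped MatrixGroups

variable {F : Type*} [Field F]

theorem invol_conj_range [Fintype F] (hF : Odd (Fintype.card F)) {Φ : MM F →* G2 F} (hΦ : IsPhi Φ)
    (t : G2 F) (ht : orderOf t = 2) : ∃ (g : G2 F) (m : MM F), g * t * g⁻¹ = Φ m := by
  have : Fact (Nat.Prime 2) := ⟨Nat.prime_two⟩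
  obtain ⟨X, hX, hc⟩ := exists_base hF
  obtain ⟨h2, h3⟩ := card_PP_ge hΦ hX.pgroup _ hc
  have hodd : Odd (PP Φ X).index := by
    apply odd_index_of_card_ge _ h2
    rw [v2_card_G2 hF]
    exact h3
  have hnd : ¬ 2 ∣ (PP Φ X).index := by
    intro hd
    exact (Nat.not_even_iff_odd.2 hodd) (even_iff_two_dvd.2 hd)
  let P : Sylow 2 (G2 F) := h2.toSylow hnd
  have hz : IsPGroup 2 (Subgroup.zpowers t) :=
    IsPGroup.of_card (n := 1) (by rw [Nat.card_zpowers, ht, pow_one])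
  obtain ⟨Q, hQ⟩ := hz.exists_le_sylow
  obtain ⟨g, hg⟩ := MulAction.exists_smul_eq (G2 F) Q P
  have htQ : t ∈ (Q : Subgroup (G2 F)) := hQ (Subgroup.mem_zpowers t)
  have hmem : g * t * g⁻¹ ∈ (P : Subgroup (G2 F)) := by
    rw [← hg, Sylow.coe_subgroup_smul]
    have := Subgroup.smul_mem_pointwise_smul t (MulAut.conj g) (Q : Subgroup (G2 F)) htQ
    simpa [MulAut.smul_def] using this
  have hmem' : g * t * g⁻¹ ∈ PP Φ X := hmem
  obtain ⟨m, -, hm⟩ := Subgroup.mem_map.1 hmem'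
  exact ⟨g, m, hm.symm⟩

end Cfsg.Agent.Lib.Helper90.GJ
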